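import Cfsg.Agent.H10.SuzT.S5.RChk0

set_option autoImplicit false
set_option linter.all false

namespace Cfsg.Agent.H10.SuzT

open Cfsg.Agent.H35 Cfsg.Spor

theorem s5_rall : ∀ p, p < 1614 → s5_rf p = true := by
  apply allR_blocks s5_rf 1614 10 2 _ (by decide)
  intro k hk
  interval_cases k
  · exact s5_rchk_0
  · exact s5_rchk_1

theorem s5_circ_ok : circChk (fullW s5_rws s5_prels) s5_circT 0 s5_ccert = true := by decide +kernel
theorem s5_hc_ok : allR (fun c => hcChk s5_rsw s5_hc1T s5_hc2T c) 4 2 0 = true := by decide +kernel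
theorem s5_h0 : RData.aord (s5_rd.ent 0 1) = 0 := by decide +kernel

end Cfsg.Agent.H10.SuzT
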